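import Cfsg.Agent.T3.Def

/-!
# Faithful action on a group of prime order
-/

set_option autoImplicit false

namespace CF.T3
open Subgroup MulAction CF.Crit.Tr

variable {G V : Type*} [Group G] [AddCommGroup V] [DistribMulAction G V] [FaithfulSMul G V]
  {p : ℕ} [hp : Fact p.Prime]

theorem comm_of_card (h : Nat.card V = p) : IsMulCommutative G := by
  have : Finite V := Nat.finite_of_card_ne_zero (h ▸ hp.out.ne_zero)
  have : Nontrivial V := Finite.one_lt_card_iff_nontrivial.1 (h ▸ hp.out.one_lt)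
  obtain ⟨x, hx⟩ := exists_ne (0 : V)
  have h1 : ∀ w : V, ∃ j : ℤ, j • x = w := fun w =>
    (zmultiples_eq_top_of_prime_card h hx).ge (AddSubgroup.mem_top w)
  refine ⟨⟨fun a b => eq_of_smul_eq_smul fun w : V => ?_⟩⟩
  obtain ⟨j, rfl⟩ := h1 w
  obtain ⟨i, hi⟩ := h1 (a • x)
  obtain ⟨k, hk⟩ := h1 (b • x)
  rw [smul_comm _ j, smul_comm _ j, mul_smul, mul_smul, ← hi, ← hk, smul_comm a k, smul_comm b i,
    ← hi, ← hk, smul_comm k i]

theorem classes_of_card [Finite G] (h : Nat.card V = p) :
    Nat.card (ConjClasses G) = Nat.card G :=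
  have := comm_of_card (G := G) h
  classes_of_comm

end CF.T3
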